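import Cfsg.Agent.CharDeep.Avg
import Cfsg.Agent.Block.Blich

/-! The Feit–Thompson degree bound for an abelian subgroup whose centralizers form a trivial
intersection set (`fti_a`, `fti_b`). -/

set_option autoImplicit false

open scoped ComplexConjugate

namespace Cfsg.Agent.CharDeep

open Cfsg Cfsg.Agent.Char Subgroup

variable {G : Type*} [Group G] [Fintype G]

theorem fti_loc (H : Subgroup G) [H.Normal] [Fintype H] {θ : G → ℂ} (hθ : IsCharacter G θ)
    (hk : ∃ h ∈ H, θ h ≠ θ 1) (W : Finset G) (hW : ∀ y ∉ W, ∀ h ∈ H, h * y = y * h → h = 1) :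
    (Nat.card G : ℝ) + ∑ y ∈ W, ‖avgN H θ y‖ ^ 2 ≤ ∑ y ∈ W, ‖θ y‖ ^ 2 := by
  classical
  set α := avgN H θ
  have h0 : (Nat.card H : ℂ) ≠ 0 := natCard_cast_ne_zero
  have hb := hθ.isGeneralizedCharacter.sub (isCharacter_avgN H hθ).isGeneralizedCharacter
  have h1 : ∑ y, conj (α y) * θ y = ∑ y, conj (α y) * α y := by
    have := sum_avgN H ((fun y => conj (α y)) * θ)
    rw [avgN_mul_of_ker H fun n hn g => by simp only [α, avgN_mul_left H θ hn]] at this
    exact this.symm
  have h2 : ∑ y, ‖θ y‖ ^ 2 = ∑ y, ‖α y‖ ^ 2 + ∑ y, ‖θ y - α y‖ ^ 2 := by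
    have e (y) : ‖θ y‖ ^ 2 = ‖α y‖ ^ 2 + ‖θ y - α y‖ ^ 2 +
        2 * (conj (α y) * θ y - conj (α y) * α y).re := by
      simp only [Complex.sq_norm, Complex.normSq_apply, Complex.sub_re, Complex.sub_im,
        Complex.mul_re, Complex.conj_re, Complex.conj_im]
      ring
    simp only [e, Finset.sum_add_distrib, ← Finset.mul_sum, ← Complex.re_sum,
      Finset.sum_sub_distrib, h1, sub_self, Complex.zero_re, mul_zero, add_zero]
  have h3 : (Nat.card G : ℝ) ≤ ∑ y, ‖θ y - α y‖ ^ 2 := by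
    obtain ⟨n, hn⟩ := hb.exists_int_classInner hb
    have e := classInner_self_re (θ - α)
    have n0 : n ≠ 0 := by
      rintro rfl
      obtain ⟨h, hh, hk⟩ := hk
      have := (classInner_self_eq_zero _).1 (hn.trans Int.cast_zero)
      have e1 := congrFun this h
      have e2 := congrFun this 1
      have e3 := avgN_mul_left H θ hh 1
      simp only [Pi.sub_apply, Pi.zero_apply, mul_one] at e1 e2 e3
      exact hk (by linear_combination e1 - e2 + e3)
    have n1 := classInner_self_re_nonneg (θ - α)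
    rw [hn, Complex.intCast_re] at e n1
    have : (1 : ℝ) ≤ n := by exact_mod_cast (Int.cast_nonneg_iff.1 n1).lt_of_ne' n0
    rw [e, le_inv_mul_iff₀ (Nat.cast_pos.2 Nat.card_pos), mul_one] at this
    exact this
  have h4 : ∑ y ∈ Wᶜ, ‖θ y‖ ^ 2 = ∑ y ∈ Wᶜ, ‖α y‖ ^ 2 := Finset.sum_congr rfl fun y hy => by
    have e (n : H) : θ (n * y) = θ y := by
      rw [hθ.isClassFunction.apply_mul_comm]
      exact (hθ.isClassFunction.apply_eq_of_isConj
        (isConj_mul_of_centralizer_trivial H (hW y (Finset.mem_compl.1 hy)) n.2)).symm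
    simp only [α, avgN_apply, e, Finset.sum_const, Finset.card_univ, nsmul_eq_mul,
      ← Nat.card_eq_fintype_card, inv_mul_cancel_left₀ h0]
  rw [← Finset.sum_add_sum_compl W, ← Finset.sum_add_sum_compl W fun y => ‖α y‖ ^ 2] at h2
  linarith

/-- The hypothesis of the Feit–Thompson bound. -/
structure FTI (H : Subgroup G) : Prop where
  ab : ∀ a ∈ H, ∀ b ∈ H, a * b = b * a
  cen : ∀ h ∈ H, h ∈ center G → h = 1
  one : ∀ g ∉ center G, ∀ a, ∀ h ∈ H, h ≠ 1 → ∀ k ∈ H, k ≠ 1 → h * g = g * h →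
    a * k * a⁻¹ * g = g * (a * k * a⁻¹) → a ∈ normalizer (H : Set G)

theorem fti_a {H : Subgroup G} [Fintype H] (hH : FTI H) {χ : G → ℂ} (hχ : IsIrrCharacter G χ)
    (hk : ∃ h ∈ H, χ h ≠ χ 1) :
    (Nat.card H : ℝ) * (classInner (fun h : H => χ h) (fun _ => 1)).re ^ 2 < (χ 1).re ^ 2 := by
  classical
  set N := normalizer (H : Set G)
  set Z := center G
  obtain ⟨lam, hl⟩ := hχ.exists_hom_of_le_center Z le_rfl
  have hn (z : Z) : ‖(lam z : ℂ)‖ = 1 := norm_eq_one_of_pow_orderOf (g := z) (by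
    rw [← Units.val_pow_eq_pow_val, ← map_pow, pow_orderOf_eq_one, map_one, Units.val_one])
  let A := Finset.univ.filter fun g : G => g ∉ Z ∧ ∃ h ∈ H, h ≠ 1 ∧ h * g = g * h
  obtain ⟨d, d0, hd⟩ := hχ.exists_pos_apply_one
  obtain ⟨c, hc⟩ := (hχ.isCharacter.restrict H).exists_nat_classInner isCharacter_one
  have h1 := Block.index_mul_sum_le N A (f := fun g => if g = 1 then 0 else ‖χ g‖ ^ 2)
    (fun g hg a ha hb => hg ?_) (fun a g => by
      rw [hχ.isClassFunction]; simp [mul_inv_eq_iff_eq_mul]) fun _ => by positivity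
  swap
  · obtain ⟨ha, h, hh, h1, e⟩ := (Finset.mem_filter.1 ha).2
    obtain ⟨hb, k, hk, k1, e'⟩ := (Finset.mem_filter.1 hb).2
    exact hH.one _ hb g k hk k1 h hh h1 e' (by
      rw [conj_mul, e, conj_mul])
  have h2 : ∑ g, (if g = 1 then 0 else ‖χ g‖ ^ 2) < (N.index * Nat.card N : ℝ) := by
    rw [← Nat.cast_mul, index_mul_card, ← hχ.sum_norm_sq]
    exact Finset.sum_lt_sum (fun g _ => by split_ifs <;> simp) ⟨1, by simp, by simp [hd, d0]⟩
  have h3 : ∑ a ∈ A, ‖χ a‖ ^ 2 < Nat.card N := by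
    rw [Finset.sum_congr rfl fun a ha => if_neg fun e =>
      (Finset.mem_filter.1 ha).2.1 (e ▸ one_mem _)] at h1
    exact lt_of_mul_lt_mul_left (h1.trans_lt h2) (Nat.cast_nonneg _)
  let W := Finset.univ.filter fun y : N => ∃ h ∈ H, h ≠ 1 ∧ h * y = y * h
  have := Fintype.ofFinite (H.subgroupOf N)
  obtain ⟨h, hh, hk⟩ := hk
  have h0 : h ≠ 1 := fun e => hk (e ▸ rfl)
  have h4 := fti_loc (H.subgroupOf N) (hχ.isCharacter.restrict N) ⟨⟨h, le_normalizer hh⟩, hh, hk⟩ W
    fun y hy k hk e => by_contra fun k1 => hy (Finset.mem_filter.2 ⟨by simp, k, hk,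
      fun e => k1 (Subtype.ext e), congrArg Subtype.val e⟩)
  have h5 : ∑ y ∈ W, ‖χ y‖ ^ 2 ≤ ∑ a ∈ A, ‖χ a‖ ^ 2 + Nat.card Z * d ^ 2 := by
    have e : (Nat.card Z * d ^ 2 : ℝ) = ∑ a ∈ Finset.univ.filter (· ∈ Z), ‖χ a‖ ^ 2 := by
      rw [Finset.sum_congr rfl (g := fun _ => (d ^ 2 : ℝ)) fun a ha => by
        have := hl ⟨a, (Finset.mem_filter.1 ha).2⟩ 1
        rw [mul_one] at this
        simp [this, hn, hd]]
      simp [Fintype.card_subtype]
    rw [e, ← Finset.sum_union (Finset.disjoint_left.2 fun a ha hb =>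
      (Finset.mem_filter.1 ha).2.1 (Finset.mem_filter.1 hb).2)]
    refine (Finset.sum_map W (Function.Embedding.subtype _) fun a => ‖χ a‖ ^ 2).symm.trans_le
      (Finset.sum_le_sum_of_subset_of_nonneg (fun a ha => ?_) fun _ _ _ => sq_nonneg _)
    obtain ⟨y, hy, rfl⟩ := Finset.mem_map.1 ha
    have := (Finset.mem_filter.1 hy).2
    by_cases e : (y : G) ∈ Z <;> simp_all [A]
  have h6 : (Nat.card Z * (Nat.card H * c ^ 2) : ℝ) ≤
      ∑ y ∈ W, ‖avgN (H.subgroupOf N) (fun x : N => χ x) y‖ ^ 2 := by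
    let f : H × Z → N := fun x => ⟨x.1 * x.2, mul_mem (le_normalizer x.1.2)
      (center_le_normalizer _ x.2.2)⟩
    have hf : f.Injective := fun x y e => by
      have e : (x.1 * x.2 : G) = y.1 * y.2 := congrArg Subtype.val e
      have e1 : (y.1 : G)⁻¹ * x.1 = y.2 * (x.2 : G)⁻¹ := by
        rw [inv_mul_eq_iff_eq_mul, ← mul_assoc, ← e, mul_inv_cancel_right]
      have e2 := hH.cen _ (mul_mem (inv_mem y.1.2) x.1.2) (e1 ▸ mul_mem y.2.2 (inv_mem x.2.2))
      exact Prod.ext (Subtype.ext (inv_mul_eq_one.1 e2).symm)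
        (Subtype.ext (mul_inv_eq_one.1 (e1 ▸ e2)).symm)
    have e (x) : ‖avgN (H.subgroupOf N) (fun x : N => χ x) (f x)‖ = c := by
      have e1 : avgN (H.subgroupOf N) (fun x : N => χ x) (f x) = lam x.2 * c := by
        rw [show f x = ⟨x.1, le_normalizer x.1.2⟩ * ⟨x.2, center_le_normalizer _ x.2.2⟩ from rfl,
          avgN_mul_left _ _ (by exact x.1.2), ← hc, classInner_one_right, avgN_apply,
          Nat.card_congr (subgroupOfEquivOfLe (H := H) le_normalizer).toEquiv, mul_left_comm,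
          Finset.mul_sum _ _ (lam x.2 : ℂ)]
        congr 1
        refine Fintype.sum_equiv (subgroupOfEquivOfLe (H := H) le_normalizer).toEquiv _ _ fun n => ?_
        rw [← hl, ← mem_center_iff.1 x.2.2]
        rfl
      simp [e1, hn]
    refine le_trans (le_of_eq ?_) (Finset.sum_le_sum_of_subset_of_nonneg
      (s := Finset.univ.map ⟨f, hf⟩) (fun a ha => ?_) fun _ _ _ => sq_nonneg _)
    · simp [e]; ring
    · obtain ⟨y, -, rfl⟩ := Finset.mem_map.1 ha
      refine Finset.mem_filter.2 ⟨by simp, h, hh, h0, ?_⟩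
      change h * (y.1 * y.2 : G) = y.1 * y.2 * h
      rw [← mul_assoc, hH.ab h hh _ y.1.2, mul_assoc, mem_center_iff.1 y.2.2, mul_assoc]
  rw [hc, hd, Complex.natCast_re, Complex.natCast_re]
  exact lt_of_mul_lt_mul_left (a := (Nat.card Z : ℝ)) (by linarith) (Nat.cast_nonneg _)

theorem deg_le_inner_of_comm (hG : ∀ a b : G, a * b = b * a) {χ : G → ℂ} (hχ : IsCharacter G χ) :
    (χ 1).re ≤ (classInner χ χ).re := by
  obtain ⟨m, h1, h2⟩ := hχ.exists_nat_coeff
  rw [hχ.isClassFunction.classInner_eq_sum_irr, hχ.isClassFunction.apply_eq_sum_irr]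
  simp only [h1, fun φ : IrrCharacter G => φ.2.apply_one_of_comm hG, Complex.re_sum, mul_one,
    Complex.conj_natCast, ← Nat.cast_mul, Complex.natCast_re]
  exact Finset.sum_le_sum fun φ _ => Nat.cast_le.2 (Nat.le_mul_self _)

theorem fti_b {H : Subgroup G} (hH : FTI H) {χ : G → ℂ} (hχ : IsIrrCharacter G χ)
    (h1 : χ 1 ≠ 1) (hM : ∀ M : Subgroup G, M.Normal → H ≤ M → M = ⊤) :
    (Nat.card H : ℝ) < (1 + (χ 1).re) ^ 2 := by
  classical
  have := Fintype.ofFinite H
  obtain ⟨d, d0, hd⟩ := hχ.exists_pos_apply_one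
  have d1 : (1 : ℝ) < d := by exact_mod_cast d0.nat_succ_le.lt_of_ne fun e => h1 (by simp [hd, ← e])
  have hθ := hχ.isCharacter.mul hχ.isCharacter.conj
  obtain ⟨m, m1, m2⟩ := hθ.exists_nat_coeff
  have m0 : m (irrOne G) = 1 := by
    have := m1 (irrOne G)
    rw [coe_irrOne, classInner_mul_left] at this
    simp only [Complex.conj_conj, mul_one, hχ.classInner_self] at this
    exact_mod_cast this.symm
  choose c hc using fun φ : IrrCharacter G =>
    (φ.2.isCharacter.restrict H).exists_nat_classInner isCharacter_one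
  choose n n0 hn using fun φ : IrrCharacter G => φ.2.exists_pos_apply_one
  have e1 : (d ^ 2 : ℝ) = ∑ φ, m φ * n φ := by
    have := congrFun m2 1
    simp only [Pi.mul_apply, hd, Finset.sum_apply, Pi.smul_apply, hn, smul_eq_mul,
      Complex.conj_natCast] at this
    rw [sq]
    exact_mod_cast this
  have e2 : (d : ℝ) ≤ ∑ φ, m φ * c φ := by
    have := deg_le_inner_of_comm (fun a b => Subtype.ext (hH.ab _ a.2 _ b.2))
      (hχ.isCharacter.restrict H)
    rw [classInner_eq_classInner_one, show (fun g : H => χ g * conj (χ g)) =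
      ∑ φ : IrrCharacter G, (m φ : ℂ) • fun g : H => φ.1 g from funext fun g => by
        simpa using congrFun m2 g, classInner_sum_left] at this
    simpa [classInner_smul_left, hc, hd] using this
  have c0 : c (irrOne G) = 1 := by
    have := hc (irrOne G)
    simp only [coe_irrOne, isIrrCharacter_one.classInner_self] at this
    exact_mod_cast this.symm
  have n1 : n (irrOne G) = 1 := Nat.cast_eq_one.1 (hn (irrOne G)).symm
  set s := √(Nat.card H : ℝ)
  have s0 : 0 ≤ s := Real.sqrt_nonneg _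
  have hs : s ^ 2 = Nat.card H := Real.sq_sqrt (Nat.cast_nonneg _)
  have e3 (φ) (hφ : φ ∈ Finset.univ.erase (irrOne G)) : s * c φ < n φ := by
    have := fti_a hH φ.2 (by
      by_contra! hk
      exact (Finset.mem_erase.1 hφ).1 (Subtype.ext (φ.2.charKer_eq_top_iff.1
        (hM _ φ.2.isClassFunction.normal_charKer fun h hh =>
          φ.2.isCharacter.mem_charKer.2 (hk h hh)))))
    rw [hc, hn, Complex.natCast_re, Complex.natCast_re, ← hs, ← mul_pow] at this
    exact lt_of_pow_lt_pow_left₀ 2 (Nat.cast_nonneg _) this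
  push_cast at e1 e2
  rw [← Finset.add_sum_erase _ _ (Finset.mem_univ (irrOne G))] at e1 e2
  simp only [m0, c0, n1, Nat.cast_one, mul_one] at e1 e2
  have e4 : ∑ φ ∈ Finset.univ.erase (irrOne G), s * ((m φ : ℝ) * c φ) <
      ∑ φ ∈ Finset.univ.erase (irrOne G), (m φ : ℝ) * n φ := by
    refine Finset.sum_lt_sum (fun φ hφ => by nlinarith [e3 φ hφ, (m φ).cast_nonneg (α := ℝ)]) ?_
    by_contra! h
    rw [Finset.sum_eq_zero fun φ hφ => by
      have := h φ hφ
      have := e3 φ hφ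
      rw [show (m φ : ℝ) = 0 by nlinarith [(m φ).cast_nonneg (α := ℝ)], zero_mul]] at e1
    nlinarith
  rw [← Finset.mul_sum] at e4
  rw [hd, Complex.natCast_re, ← hs]
  exact pow_lt_pow_left₀ (by nlinarith) s0 two_ne_zero

end Cfsg.Agent.CharDeep
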