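import Cfsg.Agent.CharDeep.TI
import Cfsg.Agent.Perm.FeitSibley
import Cfsg.Agent.CH.Solv

/-! T.I. subgroups with Frobenius normalizer (`TIF K`) and their exceptional characters (helper14). -/
set_option autoImplicit false
set_option linter.unusedSectionVars false
open scoped ComplexConjugate
open Subgroup Cfsg.Agent.BG Cfsg.Agent.Char

namespace Cfsg.Agent.CharDeep
open Cfsg
variable {G : Type*} [Group G] [Fintype G]

structure TIF (K : Subgroup G) : Prop where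
  ti : ∀ g : G, g ∉ N[K] → ∀ k ∈ K, g * k * g⁻¹ ∈ K → k = 1
  lt : K < N[K]
  cent : ∀ k ∈ K, k ≠ 1 → C1[k] ≤ K

/-- the irreducible characters of `N(K)` nontrivial on `K` -/
abbrev ExS (K : Subgroup G) : Set (N[K] → ℂ) := {χ | IsIrrCharacter N[K] χ ∧ ∃ k : N[K], (k : G) ∈ K ∧ χ k ≠ χ 1}

namespace TIF
variable {K : Subgroup G} (h : TIF K) {χ ξ α θ : N[K] → ℂ} {ψ : G → ℂ} {star : (N[K] → ℂ) → G → ℂ}
include h

theorem frob (h0 : K ≠ ⊥) : PF.FrobKer N[K] K := Perm.frobKer_normalizer h0 h.lt h.cent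

theorem not_conj {x : G} (hx : x ∈ N[K]) (hK : x ∉ K) (g : G) : g * x * g⁻¹ ∉ K := fun e => hK <| by
  by_cases h0 : K = ⊥
  · subst h0; simpa using e
  obtain ⟨m, hm⟩ := exists_pow_eq_self_of_coprime (x := x) (n := K.relIndex N[K]) (((h.frob h0).coprime.symm).coprime_dvd_right
    (by rw [← orderOf_conj' g x]; exact Subgroup.orderOf_dvd_natCard K e))
  exact hm ▸ pow_mem (PF.CH.pow_relIndex_mem le_rfl hx) m

theorem ind_eq (hθ : IsClassFunction N[K] θ) (h0 : ∀ x : N[K], (x : G) ∉ K → θ x = 0) (h1 : θ 1 = 0) (x : N[K]) :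
    indFun N[K] θ x = θ x := indFun_coe_eq_of_forall _ hθ x fun g hg hx => by
  by_cases e : g * x * g⁻¹ ∈ K
  · rw [← h1]; congr 1
    exact Subtype.ext (by simp [h.ti g hg x (by_contra fun e' => h.not_conj x.2 e' g e) e])
  · exact h0 _ e

theorem van (hχ : χ ∈ ExS K) (x : N[K]) (hx : (x : G) ∉ K) : χ x = 0 :=
  have := (normalG K).subgroupOf
  hχ.1.apply_eq_zero_of_centralizer_trivial (K.subgroupOf N[K]) hχ.2 fun k hk e => by_contra fun e' =>
    hx (h.cent k hk (fun e => e' (Subtype.ext e)) (mem_cent1.2 (congrArg Subtype.val e).symm))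

/-- `ξ(1) χ - χ(1) ξ` -/
noncomputable abbrev cr (χ ξ : N[K] → ℂ) : N[K] → ℂ := (charDegree ξ : ℤ) • χ + (-charDegree χ : ℤ) • ξ

variable [Fintype N[K]]

omit h in
theorem cr_mem (hχ : χ ∈ ExS K) (hξ : ξ ∈ ExS K) : cr χ ξ ∈ zspanOn (ExS K) {1}ᶜ :=
  ⟨add_mem (zsmul_mem (Submodule.subset_span hχ) _) (zsmul_mem (Submodule.subset_span hξ) _), fun x hx => by
    obtain rfl : x = 1 := by simpa using hx
    simp [hχ.1.apply_one_eq_charDegree, hξ.1.apply_one_eq_charDegree, mul_comm]⟩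

theorem cr_van (hχ : χ ∈ ExS K) (hξ : ξ ∈ ExS K) (x : N[K]) (hx : (x : G) ∈ K → x = 1) : cr χ ξ x = 0 := by
  by_cases e : (x : G) ∈ K
  · exact (cr_mem hχ hξ).2 x (by simp [hx e])
  · simp [h.van hχ x e, h.van hξ x e]

omit h in
theorem const (hξ : ξ ∈ ExS K) (hθ : IsClassFunction N[K] θ) (h0 : ∀ χ ∈ ExS K, classInner (cr χ ξ) θ = 0) :
    ∃ c, ∀ k : N[K], (k : G) ∈ K → k ≠ 1 → θ k = c := by
  refine ⟨∑ χ : IrrCharacter N[K], (classInner θ χ - classInner θ ξ / ξ 1 * χ.1 1) * χ.1 1, fun k hk k1 => ?_⟩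
  rw [hθ.apply_eq_sum_irr k, ← sub_zero (∑ _, _), ← mul_zero (classInner θ ξ / ξ 1), ← sum_irr_degree_mul k1,
    Finset.mul_sum, ← Finset.sum_sub_distrib]
  refine Finset.sum_congr rfl fun χ _ => ?_
  rw [← mul_assoc, ← sub_mul]
  by_cases e : χ.1 ∈ ExS K
  · have := (classInner_eq_zero_comm _ _).1 (h0 _ e)
    rw [classInner_add_right, classInner_zsmul_right, classInner_zsmul_right] at this
    have e1 := hξ.1.apply_one_ne_zero
    rw [show classInner θ χ - classInner θ ξ / ξ 1 * χ.1 1 = 0 by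
      rw [χ.2.apply_one_eq_charDegree, hξ.1.apply_one_eq_charDegree] at *
      push_cast at this; field_simp; linear_combination this, zero_mul, zero_mul]
  · rw [by_contra fun e' => e ⟨χ.2, k, hk, e'⟩]

variable (hs : IsLinearIsometryOn (zspan (ExS K)) star) (he : ∀ α ∈ zspanOn (ExS K) {1}ᶜ, star α = indFun N[K] α)
include hs he
omit h

omit he in
theorem star_cr (hχ : χ ∈ ExS K) (hξ : ξ ∈ ExS K) :
    star (cr χ ξ) = (charDegree ξ : ℤ) • star χ + (-charDegree χ : ℤ) • star ξ := by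
  have h1 : χ ∈ zspan (ExS K) := Submodule.subset_span hχ
  have h2 : ξ ∈ zspan (ExS K) := Submodule.subset_span hξ
  rw [hs.1 _ (zsmul_mem h1 _) _ (zsmul_mem h2 _), hs.2.1 _ h1, hs.2.1 _ h2]

omit hs in
theorem inner_cr (hχ : χ ∈ ExS K) (hξ : ξ ∈ ExS K) (hψ : IsClassFunction G ψ) :
    classInner (star (cr χ ξ)) ψ = classInner (cr χ ξ) fun x : N[K] => ψ x := by
  rw [he _ (cr_mem hχ hξ), classInner_indFun_left _ _ hψ]

include h
theorem exc_iff (h2 : ∃ χ ∈ ExS K, ∃ ξ ∈ ExS K, χ ≠ ξ) (hψ : IsIrrCharacter G ψ) :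
    (∃ χ ∈ ExS K, ψ = star χ ∨ ψ = -star χ) ↔ ∃ a ∈ K, ∃ b ∈ K, a ≠ 1 ∧ b ≠ 1 ∧ ψ a ≠ ψ b := by
  have sp : ∀ {χ}, χ ∈ ExS K → χ ∈ zspan (ExS K) := fun h => Submodule.subset_span h
  obtain ⟨a, ha, b, hb, hne⟩ := h2
  constructor
  · rintro ⟨χ, hχ, e⟩
    by_contra! H
    obtain ⟨ξ, hξ, n⟩ : ∃ ξ ∈ ExS K, ξ ≠ χ := by
      by_contra! H; exact hne ((H a ha).trans (H b hb).symm)
    obtain ⟨k, hk, k1⟩ := hχ.2
    have o : ∀ {χ}, χ ∈ ExS K → classInner χ (fun _ => 1) = 0 := fun {χ} hχ =>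
      hχ.1.classInner_eq_zero_of_ne isIrrCharacter_one (by rintro rfl; simpa using hχ.2)
    have e1 : classInner (star (cr χ ξ)) ψ = 0 := by
      rw [inner_cr he hχ hξ hψ.isClassFunction, show classInner (cr χ ξ) (fun x : N[K] => ψ x) =
        classInner (cr χ ξ) (ψ k • fun _ => 1) by
          simp only [classInner_def]
          refine congrArg _ (Finset.sum_congr rfl fun x _ => ?_)
          by_cases e : (x : G) ∈ K → x = 1
          · rw [h.cr_van hχ hξ x e, zero_mul, zero_mul]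
          · rw [Classical.not_imp] at e
            simp [H x e.1 k hk (fun e' => e.2 (Subtype.ext e')) fun e' => k1 (congrArg χ (Subtype.ext e'))],
        classInner_smul_right, classInner_add_left, classInner_zsmul_left, classInner_zsmul_left, o hχ, o hξ]
      simp
    have e2 : classInner (star (cr χ ξ)) (star χ) ≠ 0 := by
      rw [hs.2.2.1 _ (cr_mem hχ hξ).1 _ (sp hχ), classInner_add_left, classInner_zsmul_left, classInner_zsmul_left,
        hχ.1.classInner_self, hξ.1.classInner_eq_zero_of_ne hχ.1 n]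
      simpa using hξ.1.charDegree_pos.ne'
    rcases e with rfl | rfl
    exacts [e2 e1, e2 (by rwa [classInner_neg_right, neg_eq_zero] at e1)]
  · rintro ⟨x, hx, y, hy, x1, y1, e⟩
    by_contra! H
    have o : ∀ χ ∈ ExS K, classInner (star χ) ψ = 0 := fun χ hχ => by
      rcases (hs.2.2.2 _ (sp hχ)).irr_or_neg_irr ((hs.2.2.1 _ (sp hχ) _ (sp hχ)).trans hχ.1.classInner_self) with e | e
      · exact e.classInner_eq_zero_of_ne hψ (H χ hχ).1.symm
      · rw [← neg_eq_zero, ← classInner_neg_left]; exact e.classInner_eq_zero_of_ne hψ (H χ hχ).2.symm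
    obtain ⟨c, hc⟩ := const ha (hψ.isClassFunction.restrict N[K]) fun χ hχ => by
      rw [← inner_cr he hχ ha hψ.isClassFunction, star_cr hs hχ ha, classInner_add_left, classInner_zsmul_left,
        classInner_zsmul_left, o _ hχ, o _ ha]; simp
    exact e ((hc ⟨x, h.lt.le hx⟩ hx fun e => x1 (congrArg Subtype.val e)).trans
      (hc ⟨y, h.lt.le hy⟩ hy fun e => y1 (congrArg Subtype.val e)).symm)

theorem exc_val : ∃ m : ℤ, ∀ χ ∈ ExS K, ∀ k : N[K], (k : G) ∈ K → k ≠ 1 →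
    star χ k - χ k = (m : ℂ) * χ 1 / ((K.subgroupOf N[K]).index : ℂ) := by
  by_cases h0 : K = ⊥
  · exact ⟨0, fun χ _ k hk k1 => absurd (Subtype.ext (mem_bot.1 (h0.le hk))) k1⟩
  have F := h.frob h0
  obtain ⟨g, hg, hg'⟩ := SetLike.exists_of_lt (sol_der1_proper (nilpotent_sol (Perm.FrobKer_nil F)) h0)
  obtain ⟨l, hl, l1, l2⟩ := PF.exists_Irr_ker_not_mem (der_sub K) (norms_der (normG K)) hg hg'
  have l3 : l ≠ PF.one K := by rintro rfl; exact l2 (by rwa [PF.cfker_one])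
  obtain ⟨i1, i2⟩ := PF.irr_induced_Frobenius_ker F hl l3
  have hξ : (fun x : N[K] => PF.Ind K N[K] l x) ∈ ExS K := ⟨(PF.mem_Irr.1 i1).2, by
    by_contra! H; exact i2 ((PF.le_cfker_Irr i1).2 fun a ha => H ⟨a, h.lt.le ha⟩ ha)⟩
  have d : PF.Ind K N[K] l 1 = K.relIndex N[K] := by
    rw [PF.Ind_apply_one h.lt.le, PF.Irr_apply_one_of_commutator_le hl l1, mul_one]
  generalize PF.Ind K N[K] l = ξ at *
  have hz := hs.2.2.2 _ (Submodule.subset_span hξ)
  obtain ⟨c, hc⟩ := const hξ ((hz.isClassFunction.restrict N[K]).sub hξ.1.isClassFunction) fun χ hχ => by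
    rw [classInner_sub_right, ← inner_cr he hχ hξ hz.isClassFunction,
      hs.2.2.1 _ (cr_mem hχ hξ).1 _ (Submodule.subset_span hξ), sub_self]
  obtain ⟨m, hm⟩ := PF.ZIrr_dot_int (sub_mem (PF.ZIrr_Res (PF.mem_ZIrr_top.2 hz) le_top)
    (PF.ZIrr_Res (PF.Irr_ZIrr i1) h.lt.le)) (sub_mem (PF.one_mem_ZIrr K) (PF.Irr_ZIrr hl))
  have e : c = m := by
    rw [← hm, ← mul_one c, ← sub_zero 1, ← PF.dot_Irr_ne (PF.one_mem_Irr K) hl l3.symm, ← PF.dot_one_one le_rfl (le_refl K),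
      ← PF.dot_sub_right, ← PF.dot_smul_left, PF.dot_def, PF.dot_def]
    refine congrArg _ (Finset.sum_congr rfl fun x hx => ?_)
    replace hx : x ∈ K := PF.mem_fs.1 hx
    by_cases x1 : x = 1
    · simp [x1, PF.one_apply_one, PF.Irr_apply_one_of_commutator_le hl l1]
    · simp [PF.Res_of_mem _ hx, PF.one_of_mem hx, ← hc ⟨x, h.lt.le hx⟩ hx fun e => x1 (congrArg Subtype.val e)]
  refine ⟨m, fun χ hχ k hk k1 => ?_⟩
  have e1 := h.ind_eq ((hχ.1.isGeneralizedCharacter.zsmul _).add (hξ.1.isGeneralizedCharacter.zsmul _)).isClassFunction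
    (fun x hx => h.cr_van hχ hξ x fun e => absurd e hx) (h.cr_van hχ hξ 1 fun _ => rfl) k
  have e2 := hc k hk k1
  have e3 := hξ.1.apply_one_eq_charDegree
  have e4 := hξ.1.apply_one_ne_zero
  rw [← he _ (cr_mem hχ hξ), star_cr hs hχ hξ] at e1
  simp only [Pi.add_apply, Pi.smul_apply, Pi.sub_apply, OneMemClass.coe_one] at e1 e2 e3 e4
  simp only [zsmul_eq_mul] at e1
  push_cast at e1
  rw [← e3, ← hχ.1.apply_one_eq_charDegree] at e1
  rw [show ((K.subgroupOf N[K]).index : ℂ) = ξ 1 from d.symm, ← e, ← e2]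
  field_simp
  linear_combination e1
end TIF

end Cfsg.Agent.CharDeep
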